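import Cfsg.Agent.Fi.Extra
import Cfsg.Agent.FG.Nil
import Cfsg.Agent.FG.Core
import Cfsg.Agent.Loc.Abs

/-! Maximal abelian normal subgroups of exponent four in a finite 2-group. -/

set_option autoImplicit false

namespace CA.Mac

open Cfsg Subgroup CA.Fi

universe u

variable {G : Type u} [Group G]

/-- the elements commute -/
def Ab (A : Subgroup G) : Prop := ∀ a ∈ A, ∀ b ∈ A, Commute a b

theorem inv_of_sq {c x : G} (h : c * x * (c * x) = x * x) : x * c * x⁻¹ = c⁻¹ := by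
  have : c * (x * c) = x := mul_right_cancel (b := x) (by rw [← h]; group)
  rw [mul_inv_eq_iff_eq_mul, eq_inv_mul_iff_mul_eq, this]

theorem exists_step [Finite G] (hP : IsPGroup 2 G) {A S : Subgroup G} [A.Normal] [hS : S.Normal] (h : ¬ S ≤ A) :
    ∃ x ∈ S, x ∉ A ∧ ∀ g, g * x * g⁻¹ * x⁻¹ ∈ A := by
  haveI := (hP.to_quotient A).isNilpotent
  have h1 := CA.FG.meet_center_nil (H := ⊤) (K := S.map (QuotientGroup.mk' A))
    (Group.nilpotent_of_mulEquiv topEquiv.symm)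
    ⟨le_top, CA.FG.normal_iff_top_le_norm.1 (hS.map _ (QuotientGroup.mk'_surjective A))⟩
    (by rwa [Ne, Subgroup.map_eq_bot_iff, QuotientGroup.ker_mk'])
  obtain ⟨⟨_, ⟨x, hx, rfl⟩, h0, h2⟩, h3⟩ := ne_bot_iff_exists_ne_one.1 h1
  refine ⟨x, hx, fun e => h3 (Subtype.ext ((QuotientGroup.eq_one_iff x).2 e)), fun g => ?_⟩
  rw [← QuotientGroup.eq_one_iff, QuotientGroup.mk_mul, QuotientGroup.mk_mul, QuotientGroup.mk_mul,
    QuotientGroup.mk_inv, QuotientGroup.mk_inv, mul_inv_eq_one, mul_inv_eq_iff_eq_mul]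
  exact h2 _ (mem_top _)

/-- the subgroup `A⟨x⟩` -/
def ext (A : Subgroup G) (x : G) (hx : ∀ a ∈ A, Commute x a) : Subgroup G where
  carrier := {y | ∃ a ∈ A, ∃ n : ℤ, y = a * x ^ n}
  mul_mem' := by
    rintro _ _ ⟨a, ha, n, rfl⟩ ⟨b, hb, m, rfl⟩
    exact ⟨a * b, mul_mem ha hb, n + m, by
      rw [mul_assoc, ← mul_assoc _ b, ((hx b hb).zpow_left n).eq, zpow_add]; group⟩
  one_mem' := ⟨1, one_mem _, 0, by group⟩
  inv_mem' := by
    rintro _ ⟨a, ha, n, rfl⟩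
    exact ⟨a⁻¹, inv_mem ha, -n, by rw [mul_inv_rev, ← zpow_neg, ((hx _ (inv_mem ha)).zpow_left _).eq]⟩

theorem le_ext {A : Subgroup G} {x : G} (hx : ∀ a ∈ A, Commute x a) : A ≤ ext A x hx := fun a ha =>
  ⟨a, ha, 0, by group⟩

theorem mem_ext {A : Subgroup G} {x : G} (hx : ∀ a ∈ A, Commute x a) : x ∈ ext A x hx :=
  ⟨1, one_mem _, 1, by group⟩

theorem ab_ext {A : Subgroup G} {x : G} (hx : ∀ a ∈ A, Commute x a) (hA : Ab A) : Ab (ext A x hx) := by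
  rintro _ ⟨a, ha, n, rfl⟩ _ ⟨b, hb, m, rfl⟩
  exact ((hA a ha b hb).mul_right ((hx a ha).zpow_left m).symm).mul_left
    (((hx b hb).zpow_left n).mul_right (Commute.zpow_zpow_self x n m))

theorem normal_ext {A : Subgroup G} [hn : A.Normal] {x : G} (hx : ∀ a ∈ A, Commute x a)
    (h : ∀ g, g * x * g⁻¹ * x⁻¹ ∈ A) : (ext A x hx).Normal := ⟨by
  rintro _ ⟨a, ha, n, rfl⟩ g
  have : g * (a * x ^ n) * g⁻¹ = g * a * g⁻¹ * (g * x * g⁻¹ * x⁻¹ * x) ^ n := by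
    rw [inv_mul_cancel_right, conj_zpow]; group
  rw [this]
  exact mul_mem (le_ext hx (hn.conj_mem a ha g)) (zpow_mem (mul_mem (le_ext hx (h g)) (mem_ext hx)) n)⟩

theorem pow_ext {A : Subgroup G} {x : G} (hx : ∀ a ∈ A, Commute x a) {k : ℕ} (hA : ∀ a ∈ A, a ^ k = 1)
    (h : x ^ k = 1) : ∀ y ∈ ext A x hx, y ^ k = 1 := by
  rintro _ ⟨a, ha, n, rfl⟩
  rw [((hx a ha).zpow_left n).symm.mul_pow, hA a ha, one_mul, ← zpow_natCast, ← zpow_mul, mul_comm, zpow_mul,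
    zpow_natCast, h, one_zpow]

theorem sq_of_ind (hP : IsPGroup 2 G) {A X : Subgroup G} (hX : ∀ c ∈ X, c ^ 4 = 1 → c ∈ A) (P : G → Prop)
    (h1 : ∀ c, P c → P (c * c)) (h2 : ∀ a ∈ A, P a → a * a = 1) {c : G} (hc : c ∈ X) (h : P c) : c * c = 1 := by
  obtain ⟨n, hn⟩ := hP c
  induction n generalizing c with
  | zero => rw [pow_zero, pow_one] at hn; rw [hn, mul_one]
  | succ n ih =>
    refine h2 c (hX c hc ?_) h
    rw [show 4 = 2 * 2 from rfl, pow_mul, pow_two, pow_two]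
    exact ih (mul_mem hc hc) (h1 c h) (by rw [← pow_two, ← pow_mul, ← pow_succ', hn])

theorem sq_of_inv (hP : IsPGroup 2 G) {A X : Subgroup G} (hX : ∀ c ∈ X, c ^ 4 = 1 → c ∈ A) {y : G}
    (h2 : ∀ a ∈ A, y * a * y⁻¹ = a⁻¹ → a * a = 1) {c : G} (hc : c ∈ X) (h : y * c * y⁻¹ = c⁻¹) : c * c = 1 :=
  sq_of_ind hP hX (fun c => y * c * y⁻¹ = c⁻¹) (fun c e => by rw [mul_inv_rev, ← e]; group) h2 hc h

theorem ni_of_comm {A : Subgroup G} {y : G} (h : ∀ a ∈ A, Commute y a) :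
    ∀ a ∈ A, y * a * y⁻¹ = a⁻¹ → a * a = 1 := fun a ha e => by
  rw [conj_eq_iff_commute.2 (h a ha)] at e
  exact mul_eq_one_iff_eq_inv.2 e

theorem four_of_sq {c : G} (h : c * c = 1) : c ^ 4 = 1 := by
  rw [show 4 = 2 * 2 from rfl, pow_mul, pow_two c, h, one_pow]

theorem exists_A [Finite G] (hP : IsPGroup 2 G) : ∃ A : Subgroup G, A.Normal ∧ Ab A ∧ (∀ a ∈ A, a ^ 4 = 1) ∧
    ∀ x ∈ centralizer (A : Set G), x ^ 4 = 1 → x ∈ A := by
  obtain ⟨A, -, ⟨hn, hA, h4⟩, hmax⟩ := CA.FG.exists_max_subgroup (H := (⊥ : Subgroup G))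
    (P := fun A => A.Normal ∧ Ab A ∧ ∀ a ∈ A, a ^ 4 = 1) ⟨inferInstance, fun a ha b _ => by
      rw [mem_bot.1 ha]; exact Commute.one_left b, fun a ha => by rw [mem_bot.1 ha, one_pow]⟩
  obtain ⟨B, hAB, ⟨hnB, hB⟩, hmaxB⟩ := CA.FG.exists_max_subgroup (H := A) (P := fun A => A.Normal ∧ Ab A) ⟨hn, hA⟩
  have hC : centralizer (B : Set G) ≤ B := by
    by_contra h
    obtain ⟨x, hx, h1, h2⟩ := exists_step hP h
    have hx' := mem_cent_subgroup_iff.1 hx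
    exact h1 (hmaxB _ ⟨normal_ext hx' h2, ab_ext hx' hB⟩ (le_ext hx') ▸ mem_ext hx')
  have hB4 : ∀ c ∈ B, c ^ 4 = 1 → c ∈ A := fun c hc e => by
    let B2 : Subgroup G :=
      { carrier := {b | b ∈ B ∧ b ^ 4 = 1}
        mul_mem' := fun {a b} ha hb => ⟨mul_mem ha.1 hb.1, by rw [(hB a ha.1 b hb.1).mul_pow, ha.2, hb.2, mul_one]⟩
        one_mem' := ⟨one_mem _, one_pow _⟩
        inv_mem' := fun {a} ha => ⟨inv_mem ha.1, by rw [inv_pow, ha.2, inv_one]⟩ }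
    have := hmax B2 ⟨⟨fun a ha g => ⟨hnB.conj_mem a ha.1 g, by rw [conj_pow, ha.2]; group⟩⟩,
      fun a ha b hb => hB a ha.1 b hb.1, fun a ha => ha.2⟩ fun a ha => ⟨hAB ha, h4 a ha⟩
    exact this ▸ (⟨hc, e⟩ : c ∈ B2)
  have key : ∀ x ∈ centralizer (A : Set G), ∀ y, Commute y (x * x) → y * x * y⁻¹ * x⁻¹ ∈ B →
      y * x * y⁻¹ * x⁻¹ ∈ A ∧ y * x * y⁻¹ * x⁻¹ * (y * x * y⁻¹ * x⁻¹) = 1 := fun x hx y h1 h2 => by
    have := sq_of_inv hP hB4 (ni_of_comm (mem_cent_subgroup_iff.1 hx)) h2 (inv_of_sq (by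
      rw [inv_mul_cancel_right, ← conj_eq_iff_commute.2 h1]; group))
    exact ⟨hB4 _ h2 (four_of_sq this), this⟩
  have key2 : ∀ x ∈ centralizer (A : Set G), x * x ∈ A → ∀ b ∈ B, ∃ a ∈ A, x * b * x⁻¹ = a * b := fun x hx h1 b hb =>
    ⟨_, inv_mem (key x hx b (hB b hb _ (hAB h1)) (by
      simpa only [mul_assoc] using mul_mem hb (hnB.conj_mem _ (inv_mem hb) x))).1, by group⟩
  have key3 : ∀ x ∈ centralizer (A : Set G), x * x ∈ A → ∀ y ∈ centralizer (A : Set G), y * y ∈ A →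
      y * x * y⁻¹ * x⁻¹ ∈ A ∧ y * x * y⁻¹ * x⁻¹ * (y * x * y⁻¹ * x⁻¹) = 1 := fun x hx h1 y hy h2 => by
    refine key x hx y (mem_cent_subgroup_iff.1 hy _ h1) ?_
    have : (x * y)⁻¹ * (y * x) ∈ B := hC (mem_cent_subgroup_iff.2 fun b hb => by
      obtain ⟨a, ha, e1⟩ := key2 x hx h1 b hb
      obtain ⟨a', ha', e2⟩ := key2 y hy h2 b hb
      have c1 := conj_eq_iff_commute.2 (mem_cent_subgroup_iff.1 hy a ha)
      have c2 := conj_eq_iff_commute.2 (mem_cent_subgroup_iff.1 hx a' ha')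
      have e3 : y * x * b * (y * x)⁻¹ = a * (a' * b) := by
        calc _ = y * (x * b * x⁻¹) * y⁻¹ := by group
          _ = y * a * y⁻¹ * (y * b * y⁻¹) := by rw [e1]; group
          _ = _ := by rw [c1, e2]
      have e4 : x * y * b * (x * y)⁻¹ = a' * (a * b) := by
        calc _ = x * (y * b * y⁻¹) * x⁻¹ := by group
          _ = x * a' * x⁻¹ * (x * b * x⁻¹) := by rw [e2]; group
          _ = _ := by rw [c2, e1]
      rw [← mul_assoc a', ← (hA a ha a' ha').eq, mul_assoc a, ← e3] at e4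
      rw [← conj_eq_iff_commute]
      calc _ = (x * y)⁻¹ * (y * x * b * (y * x)⁻¹) * (x * y) := by group
        _ = b := by rw [← e4]; group)
    convert hnB.conj_mem _ this (x * y) using 1
    group
  let S : Subgroup G :=
    { carrier := {x | x ∈ centralizer (A : Set G) ∧ x * x ∈ A ∧ x ^ 4 = 1}
      mul_mem' := by
        rintro x y ⟨hx, h1, h2⟩ ⟨hy, h3, h5⟩
        obtain ⟨e1, e2⟩ := key3 x hx h1 y hy h3
        have e3 : x * y * (x * y) = y * x * y⁻¹ * x⁻¹ * (x * x * (y * y)) := by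
          calc _ = x * (y * x * y⁻¹ * x⁻¹) * (x * (y * y)) := by group
            _ = _ := by rw [(mem_cent_subgroup_iff.1 hx _ e1).eq]; group
        refine ⟨mul_mem hx hy, e3 ▸ mul_mem e1 (mul_mem h1 h3), ?_⟩
        rw [show 4 = 2 * 2 from rfl, pow_mul] at h2 h5 ⊢
        rw [pow_two x] at h2
        rw [pow_two y] at h5
        rw [pow_two (x * y), e3, (hA _ e1 _ (mul_mem h1 h3)).mul_pow, (hA _ h1 _ h3).mul_pow, h2, h5, pow_two, e2,
          mul_one, mul_one]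
      one_mem' := ⟨one_mem _, by rw [mul_one]; exact one_mem _, one_pow _⟩
      inv_mem' := fun {a} ha => ⟨inv_mem ha.1, by rw [← mul_inv_rev]; exact inv_mem ha.2.1,
        by rw [inv_pow, ha.2.2, inv_one]⟩ }
  haveI : S.Normal := ⟨fun x hx g => ⟨(inferInstance : (centralizer (A : Set G)).Normal).conj_mem x hx.1 g,
    by convert hn.conj_mem _ hx.2.1 g using 1; group, by rw [conj_pow, hx.2.2]; group⟩⟩
  have hS : S ≤ A := by
    by_contra h
    obtain ⟨x, hx, h1, h2⟩ := exists_step hP h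
    have hx' := mem_cent_subgroup_iff.1 hx.1
    exact h1 (hmax _ ⟨normal_ext hx' h2, ab_ext hx' hA, pow_ext hx' h4 hx.2.2⟩ (le_ext hx') ▸ mem_ext hx')
  refine ⟨A, hn, hA, h4, fun x hx e => hS ⟨hx, hS ⟨mul_mem hx hx, ?_, ?_⟩, e⟩⟩
  · rw [← pow_two, ← pow_two, ← pow_mul, e]
    exact one_mem _
  · rw [(Commute.refl x).mul_pow, e, mul_one]

theorem fib [Finite G] {D W : Subgroup G} (f : G → G) (T : Set G) (hT : ∀ d ∈ D, f d ∈ T)
    (hf : ∀ d ∈ D, ∀ d' ∈ D, f d = f d' → d * d'⁻¹ ∈ W) : Nat.card D ≤ Nat.card W * T.ncard := by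
  classical
  have key : ∀ t : G, ∃ s : G, ∀ d ∈ D, f d = t → d * s⁻¹ ∈ W := fun t => by
    by_cases h : ∃ s ∈ D, f s = t
    · obtain ⟨s, hs, e⟩ := h
      exact ⟨s, fun d hd e' => hf d hd s hs (e'.trans e.symm)⟩
    · exact ⟨1, fun d hd e => absurd ⟨d, hd, e⟩ h⟩
  choose s hs using key
  rw [← Nat.card_coe_set_eq, ← Nat.card_prod]
  refine Nat.card_le_card_of_injective (fun d => (⟨d * (s (f d))⁻¹, hs _ d d.2 rfl⟩, ⟨f d, hT d d.2⟩))
    fun d d' e => ?_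
  have e1 : (d : G) * (s (f d))⁻¹ = d' * (s (f d'))⁻¹ := congrArg Subtype.val (congrArg Prod.fst e)
  have e2 : f d = f d' := congrArg Subtype.val (congrArg Prod.snd e)
  rw [e2] at e1
  exact Subtype.ext (mul_right_cancel e1)

theorem realizeEqns_Mac_A : True := by
  have := @CA.Mac.Ab.eq_1.{0}
  have := @CA.Mac.Ab.eq_def.{0}
  have := @CA.Mac.Ab.congr_simp.{0}
  have := @CA.Mac.ext.eq_1.{0}
  have := @CA.Mac.ext.eq_def.{0}
  have := @CA.Mac.ext.congr_simp.{0}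
  trivial

end CA.Mac
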