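import Cfsg.Agent.Mac.A

/-! Finite 2-groups without normal elementary abelian subgroups of order eight. -/

set_option autoImplicit false
set_option maxRecDepth 100000

namespace CA.Mac

open Cfsg Subgroup CA.Fi

universe u

variable {G : Type u} [Group G]

/-- the basic configuration -/
structure St (A W : Subgroup G) (z w : G) : Prop where
  two : IsPGroup 2 G
  h : ∀ E : Subgroup G, E.Normal → Ab E → (∀ a ∈ E, a ^ 2 = 1) → Nat.card E ≤ 4
  nA : A.Normal
  ab : Ab A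
  four : ∀ a ∈ A, a ^ 4 = 1
  alp : ∀ x ∈ centralizer (A : Set G), x ^ 4 = 1 → x ∈ A
  memW : ∀ {x}, x ∈ W ↔ x ∈ A ∧ x * x = 1
  nW : W.Normal
  zW : z ∈ W
  wW : w ∈ W
  zc : ∀ g, Commute g z
  cs : ∀ x ∈ W, x = 1 ∨ x = z ∨ x = w ∨ x = z * w

theorem exists_St [Finite G] (hP : IsPGroup 2 G)
    (h : ∀ E : Subgroup G, E.Normal → Ab E → (∀ a ∈ E, a ^ 2 = 1) → Nat.card E ≤ 4) :
    ∃ (A W : Subgroup G) (z w : G), St A W z w := by
  classical
  obtain ⟨A, hn, hA, h4, alp⟩ := exists_A hP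
  let W : Subgroup G :=
    { carrier := {b | b ∈ A ∧ b * b = 1}
      mul_mem' := fun {a b} ha hb => ⟨mul_mem ha.1 hb.1, by
        rw [← pow_two, (hA a ha.1 b hb.1).mul_pow, pow_two, pow_two, ha.2, hb.2, mul_one]⟩
      one_mem' := ⟨one_mem _, mul_one _⟩
      inv_mem' := fun {a} ha => ⟨inv_mem ha.1, by rw [← mul_inv_rev, ha.2, inv_one]⟩ }
  haveI nW : W.Normal := ⟨fun a ha g => ⟨hn.conj_mem a ha.1 g, by
    rw [← pow_two, conj_pow, pow_two, ha.2]; group⟩⟩
  have hW := h W nW (fun a ha b hb => hA a ha.1 b hb.1) fun a ha => (pow_two a).trans ha.2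
  by_cases h0 : W ≤ ⊥
  · exact ⟨A, W, 1, 1, hP, h, hn, hA, h4, alp, Iff.rfl, nW, one_mem _, one_mem _, Commute.one_right,
      fun x hx => Or.inl (h0 hx)⟩
  obtain ⟨z, hz, z1, zc⟩ := exists_step hP h0
  have zc' : ∀ g, Commute g z := fun g => conj_eq_iff_commute.1 (mul_inv_eq_one.1 (zc g))
  by_cases h1 : ∀ x ∈ W, x = 1 ∨ x = z
  · exact ⟨A, W, z, 1, hP, h, hn, hA, h4, alp, Iff.rfl, nW, hz, one_mem _, zc',
      fun x hx => (h1 x hx).imp_right Or.inl⟩
  push Not at h1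
  obtain ⟨w, hw, w1, wz⟩ := h1
  refine ⟨A, W, z, w, hP, h, hn, hA, h4, alp, Iff.rfl, nW, hz, hw, zc', fun x hx => ?_⟩
  by_contra! hc
  obtain ⟨e1, e2, e3, e4⟩ := hc
  have z1' : z ≠ 1 := z1
  have e5 : z * w ≠ 1 := fun e => wz (by rw [← inv_eq_of_mul_eq_one_right e, inv_eq_self_of_sq hz.2])
  have h5 : ({x, z * w, w, z, 1} : Finset G).card = 5 := by
    rw [Finset.card_insert_of_notMem, Finset.card_insert_of_notMem, Finset.card_insert_of_notMem,
      Finset.card_insert_of_notMem, Finset.card_singleton] <;> simp [*]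
  have := Set.ncard_le_ncard (s := (({x, z * w, w, z, 1} : Finset G) : Set G)) (t := W) (by
    intro y hy
    simp only [Finset.coe_insert, Finset.coe_singleton, Set.mem_insert_iff, Set.mem_singleton_iff] at hy
    rcases hy with rfl | rfl | rfl | rfl | rfl
    exacts [hx, mul_mem hz hw, hw, hz, one_mem _])
  rw [Set.ncard_coe_finset, h5, ← Nat.card_coe_set_eq] at this
  exact absurd (this.trans hW) (by norm_num)

/-- `y` inverts no element of order four -/
def NI (A : Subgroup G) (y : G) : Prop := ∀ a ∈ A, y * a * y⁻¹ = a⁻¹ → a * a = 1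

namespace St

variable {A W : Subgroup G} {z w : G} (S : St A W z w)
include S

theorem cardW : Nat.card W ≤ 4 :=
  S.h W S.nW (fun a ha b hb => S.ab a (S.memW.1 ha).1 b (S.memW.1 hb).1) fun a ha =>
    (pow_two a).trans (S.memW.1 ha).2

theorem commW {k x : G} (hk : k ∈ centralizer ({w} : Set G)) (hx : x ∈ W) : Commute k x := by
  rcases S.cs x hx with rfl | rfl | rfl | rfl
  exacts [Commute.one_right k, S.zc k, mem_cent_iff.1 hk, (S.zc k).mul_right (mem_cent_iff.1 hk)]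

theorem CK : centralizer (A : Set G) ≤ centralizer ({w} : Set G) := fun _ hc =>
  mem_cent_iff.2 (mem_cent_subgroup_iff.1 hc w (S.memW.1 S.wW).1)

theorem nK : (centralizer ({w} : Set G)).Normal := ⟨fun k hk g => mem_cent_iff.2 (commute_conj_left_iff.2
  (S.commW hk (by simpa using S.nW.conj_mem w S.wW g⁻¹)))⟩

theorem nC : (centralizer (A : Set G)).Normal := haveI := S.nA; inferInstance

theorem conj_w (g : G) : g * w * g⁻¹ = w ∨ g * w * g⁻¹ = z * w := by
  rcases S.cs _ (S.nW.conj_mem w S.wW g) with e | e | e | e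
  · rw [conj_eq_one_iff.1 e]
    exact Or.inl (by group)
  · rw [← conj_eq_iff_commute.2 (S.zc g), mul_left_inj, mul_right_inj] at e
    rw [e]
    exact Or.inl (conj_eq_iff_commute.2 (S.zc g))
  exacts [Or.inl e, Or.inr e]

theorem memW' {c : G} (hc : c ∈ centralizer (A : Set G)) (e : c * c = 1) : c ∈ W :=
  S.memW.2 ⟨S.alp c hc (four_of_sq e), e⟩

theorem sqW {c : G} (hc : c ∈ A) : c * c ∈ W :=
  S.memW.2 ⟨mul_mem hc hc, by rw [← pow_two, ← pow_two, ← pow_mul]; exact S.four c hc⟩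

theorem fibre {y c : G} (hy : NI A y) (hc : c ∈ centralizer (A : Set G)) (e : c * y * (c * y) = y * y) : c ∈ W :=
  S.memW' hc (sq_of_inv S.two S.alp hy hc (inv_of_sq e))

theorem ni_mul {y c : G} (hy : NI A y) (hc : c ∈ centralizer (A : Set G)) : NI A (c * y) := fun a ha e => by
  refine hy a ha ?_
  rw [← e, ← conj_eq_iff_commute.2 (mem_cent_subgroup_iff.1 hc _ (S.nA.conj_mem a ha y))]
  group

variable [Finite G] {U M : Subgroup G}

theorem D0 {u : G} (hy : NI A u) (T : Set G) (hT : ∀ d ∈ centralizer (A : Set G) ⊓ U, d * u * (d * u) ∈ T) :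
    Nat.card ↥(centralizer (A : Set G) ⊓ U) ≤ 4 * T.ncard :=
  (fib (W := W) (fun d => d * u * (d * u)) T hT fun d hd d' hd' e =>
    S.fibre (S.ni_mul hy hd'.1) (mul_mem hd.1 (inv_mem hd'.1)) (by
      rw [show d * d'⁻¹ * (d' * u) = d * u by group]; exact e)).trans (Nat.mul_le_mul_right _ S.cardW)

theorem D1 (hM : ∀ u ∈ U, u * u ∈ M) :
    Nat.card ↥(centralizer (A : Set G) ⊓ U) ≤ 4 * Nat.card ↥(centralizer (A : Set G) ⊓ M) :=
  S.D0 (ni_of_comm fun a _ => Commute.one_left a) _ fun d hd => by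
    rw [mul_one]
    exact ⟨mul_mem hd.1 hd.1, hM d hd.2⟩

theorem D2 (hM : ∀ u ∈ U, u * u ∈ M) {u : G} (hu : u ∈ U) (hy : NI A u) (h1 : u * u ∈ centralizer (A : Set G))
    (h2 : ∀ c ∈ centralizer (A : Set G), c * u * (c * u) ≠ 1) :
    Nat.card ↥(centralizer (A : Set G) ⊓ U) < 4 * Nat.card ↥(centralizer (A : Set G) ⊓ M) := by
  refine (S.D0 hy (((centralizer (A : Set G) ⊓ M : Subgroup G) : Set G) \ {1}) fun d hd =>
    ⟨⟨?_, hM _ (mul_mem hd.2 hu)⟩, h2 d hd.1⟩).trans_lt ?_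
  · rw [show d * u * (d * u) = d * (u * d * u⁻¹) * (u * u) by group]
    exact mul_mem (mul_mem hd.1 (S.nC.conj_mem d hd.1 u)) h1
  · rw [Set.ncard_diff_singleton_of_mem (one_mem _), ← Nat.card_coe_set_eq]
    have : 0 < Nat.card ↥(centralizer (A : Set G) ⊓ M) := Nat.card_pos
    change 4 * (Nat.card ↥(centralizer (A : Set G) ⊓ M) - 1) < _
    omega

theorem R0 {c : ℕ} (h1 : (centralizer (A : Set G)).relIndex (centralizer {w} ⊓ U) ≤ c)
    (h2 : M ≤ centralizer (A : Set G) → ∀ g ∈ U, g ∉ centralizer ({w} : Set G) →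
      2 * (centralizer (A : Set G)).relIndex (centralizer {w} ⊓ U) ≤ c) :
    (centralizer (A : Set G)).relIndex U ≤ c * (centralizer (A : Set G)).relIndex M := by
  have e := relIndex_inf_mul_relIndex (centralizer (A : Set G)) (centralizer {w}) U
  rw [inf_eq_left.2 S.CK] at e
  have h3 : (centralizer ({w} : Set G)).relIndex U ≤ 2 := by
    rw [CA.Loc.relIndex_cent]
    refine (Set.ncard_le_ncard (t := {w, z * w}) ?_).trans (Set.ncard_insert_le _ _ |>.trans (by simp))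
    rintro _ ⟨g, -, rfl⟩
    exact S.conj_w g
  have h4 : (centralizer (A : Set G)).relIndex M ≠ 0 := index_ne_zero_of_finite
  have h5 := Nat.mul_le_mul_left ((centralizer (A : Set G)).relIndex (centralizer {w} ⊓ U)) h3
  rw [e] at h5
  by_cases hM : M ≤ centralizer (A : Set G)
  · rw [relIndex_eq_one.2 hM, mul_one]
    by_cases hU : U ≤ centralizer ({w} : Set G)
    · rwa [inf_eq_right.2 hU] at h1
    · obtain ⟨g, hg, hg'⟩ := SetLike.not_le_iff_exists.1 hU
      have := h2 hM g hg hg'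
      omega
  · have : 2 ≤ (centralizer (A : Set G)).relIndex M := by
      have := mt relIndex_eq_one.1 hM
      omega
    nlinarith

omit S [Finite G] in
theorem comm_mem (hM : ∀ u ∈ U, u * u ∈ M) {g k : G} (hg : g ∈ U) (hk : k ∈ U) : g * k * g⁻¹ * k⁻¹ ∈ M := by
  convert mul_mem (mul_mem (hM g hg) (hM _ (mul_mem (inv_mem hg) hk))) (inv_mem (hM k hk)) using 1
  group

omit S [Finite G] in
theorem kU_eq {Y : Type*} [Group Y] (f : centralizer ({w} : Set G) →* Y)
    (hf : ∀ k, f k = 1 ↔ k.1 ∈ centralizer (A : Set G)) :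
    (centralizer (A : Set G)).relIndex (centralizer {w} ⊓ U) = Nat.card ((U.subgroupOf _).map f) := by
  rw [← relIndex_ker, ← relIndex_subgroupOf (inf_le_left : centralizer {w} ⊓ U ≤ _), inf_subgroupOf_left]
  congr 1
  ext k
  exact (hf k).symm

omit S in
theorem fin {a b : ℕ} (hab : a * b ≤ 32)
    (h1 : Nat.card ↥(centralizer (A : Set G) ⊓ U) < a * Nat.card ↥(centralizer (A : Set G) ⊓ M))
    (h2 : (centralizer (A : Set G)).relIndex U ≤ b * (centralizer (A : Set G)).relIndex M) :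
    Nat.card U < 32 * Nat.card M := by
  rw [← CA.FG.card_inf_mul_relIndex (centralizer (A : Set G)) U, ← CA.FG.card_inf_mul_relIndex (centralizer (A : Set G)) M]
  have h4 : (centralizer (A : Set G)).relIndex U ≠ 0 := index_ne_zero_of_finite
  calc _ < a * Nat.card ↥(centralizer (A : Set G) ⊓ M) * (b * (centralizer (A : Set G)).relIndex M) :=
        Nat.mul_lt_mul_of_lt_of_le h1 h2 (by omega)
    _ = a * b * (Nat.card ↥(centralizer (A : Set G) ⊓ M) * (centralizer (A : Set G)).relIndex M) := by ring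
    _ ≤ _ := Nat.mul_le_mul_right _ hab

theorem fin4 (hM : ∀ u ∈ U, u * u ∈ M)
    (h2 : (centralizer (A : Set G)).relIndex U ≤ 4 * (centralizer (A : Set G)).relIndex M) :
    Nat.card U < 32 * Nat.card M :=
  fin (a := 5) (by norm_num) ((S.D1 hM).trans_lt (Nat.mul_lt_mul_of_pos_right (by norm_num) Nat.card_pos)) h2

theorem caseI (hM : ∀ u ∈ U, u * u ∈ M) {a : G} (ha : a ∈ A) (h : ∀ c ∈ A, c * c = 1 ∨ c * c = a * a) :
    Nat.card U < 32 * Nat.card M := by
  have h0 : ∀ c ∈ A, c * c = a * a → c * a⁻¹ ∈ W := fun c hc e => S.memW.2 ⟨mul_mem hc (inv_mem ha), by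
    rw [← pow_two, (S.ab c hc _ (inv_mem ha)).mul_pow, inv_pow, pow_two, pow_two, e, mul_inv_cancel]⟩
  have h1 : ∀ g, g * a * g⁻¹ * a⁻¹ ∈ W := fun g => h0 _ (S.nA.conj_mem a ha g) (by
    rcases h _ (S.nA.conj_mem a ha g) with e | e
    · rw [e, ← pow_two, eq_comm, ← conj_eq_one_iff (a := g), ← conj_pow, pow_two, e]
    · exact e)
  let f : centralizer ({w} : Set G) →* G := MonoidHom.mk' (fun k => k * a * (k : G)⁻¹ * a⁻¹) fun k l => by
    rw [(S.ab _ (S.memW.1 (h1 k)).1 _ (S.memW.1 (h1 l)).1).eq, ← conj_eq_iff_commute.2 (S.commW k.2 (h1 l)), coe_mul]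
    group
  have e := kU_eq (A := A) (U := U) f fun k => ⟨fun e => mem_cent_subgroup_iff.2 fun c hc => by
      have e1 : Commute (k : G) a := conj_eq_iff_commute.1 (mul_inv_eq_one.1 e)
      rcases h c hc with e2 | e2
      · exact S.commW k.2 (S.memW.2 ⟨hc, e2⟩)
      · simpa using (S.commW k.2 (h0 c hc e2)).mul_right e1,
    fun e => mul_inv_eq_one.2 (conj_eq_iff_commute.2 (mem_cent_subgroup_iff.1 e a ha))⟩
  have h2 : (U.subgroupOf _).map f ≤ W := by
    rintro _ ⟨k, -, rfl⟩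
    exact h1 k
  refine S.fin4 hM (S.R0 (e ▸ (card_le_of_le h2).trans S.cardW) fun hMC g hg hg' => ?_)
  rw [e]
  by_contra! h3
  have h4 : (U.subgroupOf _).map f = W := eq_of_le_of_card_ge h2 (by
    obtain ⟨j, hj⟩ := card_dvd_of_le h2
    have := S.cardW
    have h5 : 0 < Nat.card W := Nat.card_pos
    rcases j with _ | _ | j <;> nlinarith)
  obtain ⟨k, hk, e1⟩ : w ∈ (U.subgroupOf _).map f := h4 ▸ S.wW
  have e2 : (k : G) * a * (k : G)⁻¹ * a⁻¹ = w := e1
  have e3 := conj_eq_iff_commute.2 (mem_cent_subgroup_iff.1 (hMC (comm_mem hM hg (show (k : G) ∈ U from hk))) _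
    (S.nA.conj_mem a ha k))
  have e4 := conj_eq_iff_commute.2 (S.commW k.2 (h1 g⁻¹))
  refine hg' (mem_cent_iff.2 (conj_eq_iff_commute.1 ?_))
  calc _ = g * (w * (g⁻¹ * a * g⁻¹⁻¹ * a⁻¹) * a) * g⁻¹ * a⁻¹ := by group
    _ = g * (g⁻¹ * a * g⁻¹⁻¹ * a⁻¹ * w * a) * g⁻¹ * a⁻¹ := by
        rw [(S.ab _ (S.memW.1 S.wW).1 _ (S.memW.1 (h1 g⁻¹)).1).eq]
    _ = _ := by
        generalize (k : G) = k' at e2 e3 e4
        rw [← e4, ← e2]
        nth_rewrite 2 [← e3]
        group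

end St

theorem realizeEqns_Mac_B : True := by
  have := @CA.Mac.NI.eq_1.{0}
  have := @CA.Mac.NI.eq_def.{0}
  have := @CA.Mac.NI.congr_simp.{0}
  trivial

end CA.Mac
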