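import Cfsg.Agent.Mac.B

/-! The case of a homocyclic normal subgroup of order sixteen. -/

set_option autoImplicit false
set_option maxRecDepth 100000
set_option synthInstance.maxSize 4000
set_option synthInstance.maxHeartbeats 200000

namespace CA.Mac

open Cfsg Subgroup CA.Fi Multiplicative

universe u

abbrev V : Type := ZMod 2 × ZMod 2
abbrev M2 : Type := Multiplicative (V × V)

def ev (m : M2) (u : V) : V := u.1 • m.toAdd.1 + u.2 • m.toAdd.2
def sg (u : V) : V := (u.1 + u.2, u.2)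
def tau (m : M2) : M2 := ofAdd (sg (ev m (sg (1, 0))), sg (ev m (sg (0, 1))))
def good (m : M2) : Prop := m ≠ 1 ∧ ∀ u, ev m u = u → u = 0
def nn : M2 := ofAdd ((0, 0), (1, 0))
def om : M2 := ofAdd ((0, 1), (1, 1))

instance : DecidablePred good := fun m => inferInstanceAs (Decidable (m ≠ 1 ∧ ∀ u, ev m u = u → u = 0))

theorem ev_ext : ∀ m m' : M2, ev m (1, 0) = ev m' (1, 0) → ev m (0, 1) = ev m' (0, 1) → m = m' := by decide +kernel
theorem ev_tau : ∀ m u, ev (tau m) u = sg (ev m (sg u)) := by decide +kernel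
theorem ev_one : ∀ u, ev 1 u = 0 := by decide +kernel
theorem good_sur : ∀ m, good m → ∀ v, ∃ u, u + ev m u = v := by decide +kernel
theorem good_tau : ∀ m, good m → tau m ≠ m → good (tau m) ∧ ∀ u, ev (m * tau m) u = 0 → u = 0 := by decide +kernel
theorem V_cases : ∀ u : V, u = (0, 0) ∨ u = (1, 0) ∨ u = (0, 1) ∨ u = (1, 1) := by decide +kernel
theorem V_add : ∀ u : V, u + u = 0 := by decide +kernel
theorem V_eq : ∀ u v : V, u + v = 0 → u = v := by decide +kernel
theorem sg_sg : ∀ u : V, sg (sg u) = u := by decide +kernel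

theorem card_M2 : Nat.card M2 = 16 := by rw [Nat.card_eq_fintype_card]; rfl

theorem H1 (H : Subgroup M2) (h : 4 < Nat.card H) {x y : M2} (hx : x ∉ H) (hy : y ∉ H) : x * y ∈ H := by
  have h1 := H.card_mul_index
  rw [card_M2] at h1
  have h2 : H.index ≠ 1 := fun e => hx (index_eq_one.1 e ▸ mem_top x)
  have h3 : H.index = 2 := by
    generalize H.index = i at *
    generalize Nat.card H = c at *
    have : i < 4 := by nlinarith
    interval_cases i <;> omega
  exact (mul_mem_iff_of_index_two h3).2 (iff_of_false hx hy)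

theorem H2 (H : Subgroup M2) (h : 4 < Nat.card H) : ∃ m ∈ H, good m := by
  by_contra! hc
  have key : ∀ m, good m → m ∉ H := fun m e e' => hc m e' e
  have h1 := H1 H h (key nn (by decide +kernel)) (key (ofAdd ((0, 1), (0, 0))) (by decide +kernel))
  have h2 := H1 H h (key om (by decide +kernel)) (key (tau om) (by decide +kernel))
  exact key _ (by decide +kernel) (mul_mem h1 h2)

theorem H3 (H : Subgroup M2) (h : 4 < Nat.card H) (ht : ∀ m, m ∈ H → tau m ∈ H) : nn ∈ H := by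
  rw [show nn = ofAdd ((1, 0), (0, 0)) * tau (ofAdd ((1, 0), (0, 0))) by decide +kernel]
  by_cases h1 : ofAdd ((1, 0), (0, 0)) ∈ H
  · exact mul_mem h1 (ht _ h1)
  · exact H1 H h h1 fun e => h1 (by
      have := ht _ e
      rwa [show tau (tau (ofAdd ((1, 0), (0, 0)))) = ofAdd ((1, 0), (0, 0)) by decide +kernel] at this)

theorem H4 (H : Subgroup M2) (h : om ∉ H) : Nat.card H ≤ 8 := by
  have h1 := H.card_mul_index
  rw [card_M2] at h1
  have h2 : H.index ≠ 1 := fun e => h (index_eq_one.1 e ▸ mem_top _)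
  generalize H.index = i at *
  rcases i with _ | _ | i
  · omega
  · omega
  · nlinarith

theorem H0 (H : Subgroup M2) (s : Finset M2) (h : ∀ m ∈ H, m ∈ s) : Nat.card H ≤ s.card := by
  rw [← Set.ncard_coe_finset]
  exact (Nat.card_coe_set_eq (H : Set M2)).trans_le (Set.ncard_le_ncard h)

theorem H5 (H : Subgroup M2) (h : ∀ m ∈ H, tau m = m) : Nat.card H ≤ 4 :=
  (H0 H (Finset.univ.filter fun m => tau m = m) fun m hm => Finset.mem_filter.2 ⟨Finset.mem_univ _, h m hm⟩).trans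
    (by decide +kernel)

theorem H6 (H : Subgroup M2) (h : ∀ m ∈ H, tau m = m) (hn : nn ∉ H) : Nat.card H ≤ 2 := by
  have key : ∀ m m' : M2, tau m = m → tau m' = m' → m ≠ 1 → m = nn ∨ m' = nn ∨ m * m' = nn ∨ m' = 1 ∨ m' = m := by
    decide +kernel
  by_cases h1 : ∃ m ∈ H, m ≠ 1
  · obtain ⟨m, hm, h1⟩ := h1
    refine (H0 H {1, m} fun m' hm' => ?_).trans Finset.card_le_two
    rcases key m m' (h m hm) (h m' hm') h1 with e | e | e | e | e
    exacts [absurd (e ▸ hm) hn, absurd (e ▸ hm') hn, absurd (e ▸ mul_mem hm hm') hn, by simp [e], by simp [e]]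
  · push Not at h1
    exact (H0 H {1} fun m hm => Finset.mem_singleton.2 (h1 m hm)).trans (by simp)

variable {G : Type u} [Group G]

/-- coordinates -/
structure T2 (A W : Subgroup G) (z w : G) (δ : V → G) (φ : centralizer ({w} : Set G) →* M2) : Prop
    extends St A W z w where
  add : ∀ u v, δ (u + v) = δ u * δ v
  inj : ∀ u, δ u = 1 → u = 0
  mem : ∀ u, δ u ∈ W
  sur : ∀ x ∈ W, ∃ u, δ u = x
  sq : ∀ u, ∃ c ∈ A, c * c = δ u
  act : ∀ (k : centralizer ({w} : Set G)) c u, c ∈ A → c * c = δ u → k * c * (k : G)⁻¹ = c * δ (ev (φ k) u)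
  out : ∀ g ∉ centralizer ({w} : Set G), ∀ u, g * δ u * g⁻¹ = δ (sg u)

theorem exists_T2 {A W : Subgroup G} {z w : G} (S : St A W z w) {a b : G} (ha : a ∈ A) (hb : b ∈ A)
    (e1 : a * a = z) (e2 : b * b = w) (z1 : z ≠ 1) (w1 : w ≠ 1) (zw : z * w ≠ 1) : ∃ δ φ, T2 A W z w δ φ := by
  have z2 := (S.memW.1 S.zW).2
  have w2 := (S.memW.1 S.wW).2
  have hp : ∀ x : G, x * x = 1 → ∀ i j : ZMod 2, x ^ (i + j).val = x ^ i.val * x ^ j.val := fun x hx i j => by
    rw [ZMod.val_add, ← pow_add, ← pow_eq_pow_mod _ ((pow_two x).trans hx)]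
  let δ : V → G := fun u => z ^ u.1.val * w ^ u.2.val
  have d0 : δ (0, 0) = 1 := by show z ^ 0 * w ^ 0 = 1; group
  have d1 : δ (1, 0) = z := by show z ^ 1 * w ^ 0 = z; group
  have d2 : δ (0, 1) = w := by show z ^ 0 * w ^ 1 = w; group
  have d3 : δ (1, 1) = z * w := by show z ^ 1 * w ^ 1 = z * w; group
  have add : ∀ u v, δ (u + v) = δ u * δ v := fun u v => by
    show z ^ (u.1 + v.1).val * w ^ (u.2 + v.2).val = z ^ u.1.val * w ^ u.2.val * (z ^ v.1.val * w ^ v.2.val)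
    rw [hp z z2, hp w w2, mul_assoc, mul_assoc, ← mul_assoc (w ^ _), ((S.zc (w ^ _)).pow_right _).eq, mul_assoc]
  have inj : ∀ u, δ u = 1 → u = 0 := fun u e => by
    rcases V_cases u with rfl | rfl | rfl | rfl
    exacts [rfl, absurd (d1 ▸ e) z1, absurd (d2 ▸ e) w1, absurd (d3 ▸ e) zw]
  have inj' : ∀ u v, δ u = δ v → u = v := fun u v e => V_eq u v (inj _ (by rw [add, e, ← add, V_add]; exact d0))
  have mem : ∀ u, δ u ∈ W := fun u => mul_mem (pow_mem S.zW _) (pow_mem S.wW _)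
  have sur : ∀ x ∈ W, ∃ u, δ u = x := fun x hx => by
    rcases S.cs x hx with rfl | rfl | rfl | rfl
    exacts [⟨_, d0⟩, ⟨_, d1⟩, ⟨_, d2⟩, ⟨_, d3⟩]
  have h0 : ∀ c ∈ A, ∀ c' ∈ A, c * c = c' * c' → c⁻¹ * c' ∈ W := fun c hc c' hc' e => S.memW.2
    ⟨mul_mem (inv_mem hc) hc', by
      rw [← pow_two, (S.ab _ (inv_mem hc) _ hc').mul_pow, inv_pow, pow_two, pow_two, e, inv_mul_cancel]⟩
  have h1 : ∀ c ∈ A, ∀ k : centralizer ({w} : Set G), ∃ u, k * c * (k : G)⁻¹ = c * δ u := fun c hc k => by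
    obtain ⟨u, e⟩ := sur _ (h0 c hc _ (S.nA.conj_mem c hc k) (by
      rw [← conj_eq_iff_commute.2 (S.commW k.2 (S.sqW hc))]; group))
    exact ⟨u, by rw [e]; group⟩
  choose p hp using h1
  have h2 : ∀ c (hc : c ∈ A) k l, p c hc (k * l) = p c hc k + p c hc l := fun c hc k l => inj' _ _ (by
    rw [add, ← mul_left_cancel_iff (a := c), ← hp, ← mul_assoc, ← hp, ← conj_eq_iff_commute.2 (S.commW k.2 (mem _)),
      coe_mul, show (k : G) * c * (k : G)⁻¹ * (k * δ (p c hc l) * (k : G)⁻¹) = k * (c * δ (p c hc l)) * (k : G)⁻¹ by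
        group, ← hp]
    group)
  have e3 : a * b * (a * b) = z * w := by rw [← pow_two, (S.ab a ha b hb).mul_pow, pow_two, pow_two, e1, e2]
  refine ⟨δ, MonoidHom.mk' (fun k => ofAdd (p a ha k, p b hb k)) fun k l => by rw [h2, h2]; rfl, S, add, inj, mem, sur,
    fun u => ?_, fun k c u hc e => ?_, fun g hg u => ?_⟩
  · rcases V_cases u with rfl | rfl | rfl | rfl
    exacts [⟨1, one_mem _, by rw [d0, mul_one]⟩, ⟨a, ha, e1.trans d1.symm⟩, ⟨b, hb, e2.trans d2.symm⟩,
      ⟨_, mul_mem ha hb, e3.trans d3.symm⟩]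
  · have key : ∀ c' ∈ A, ∀ v, c' * c' = δ u → k * c' * (k : G)⁻¹ = c' * δ v → k * c * (k : G)⁻¹ = c * δ v := by
      intro c' hc' v e4 e5
      have h3 := h0 c' hc' c hc (e4.trans e.symm)
      calc _ = k * c' * (k : G)⁻¹ * (k * (c'⁻¹ * c) * (k : G)⁻¹) := by group
        _ = _ := by
          rw [e5, conj_eq_iff_commute.2 (S.commW k.2 h3), mul_assoc,
            (S.ab _ (S.memW.1 (mem v)).1 _ (S.memW.1 h3).1).eq]
          group
    rcases V_cases u with rfl | rfl | rfl | rfl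
    · exact key 1 (one_mem _) _ (by rw [d0, mul_one]) (by
        rw [show ev _ (0, 0) = (0, 0) by simp [ev, Prod.ext_iff], d0]; group)
    · exact key a ha _ (e1.trans d1.symm) (by rw [hp a ha]; simp [ev])
    · exact key b hb _ (e2.trans d2.symm) (by rw [hp b hb]; simp [ev])
    · refine key _ (mul_mem ha hb) _ (e3.trans d3.symm) ?_
      rw [show ev _ (1, 1) = p a ha k + p b hb k by simp [ev], add,
        show (k : G) * (a * b) * (k : G)⁻¹ = k * a * (k : G)⁻¹ * (k * b * (k : G)⁻¹) by group, hp a ha, hp b hb,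
        mul_assoc, ← mul_assoc (δ _), (S.ab _ (S.memW.1 (mem _)).1 b hb).eq]
      group
  · have e4 := (S.conj_w g).resolve_left fun e => hg (mem_cent_iff.2 (conj_eq_iff_commute.1 e))
    have e5 := conj_eq_iff_commute.2 (S.zc g)
    rcases V_cases u with rfl | rfl | rfl | rfl
    · rw [show sg (0, 0) = (0, 0) by decide, d0]; group
    · rw [show sg (1, 0) = (1, 0) by decide, d1, e5]
    · rw [show sg (0, 1) = (1, 1) by decide, d2, d3, e4]
    · rw [show sg (1, 1) = (0, 1) by decide, d2, d3, show g * (z * w) * g⁻¹ = g * z * g⁻¹ * (g * w * g⁻¹) by group,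
        e4, e5, ← mul_assoc, z2, one_mul]

namespace T2

variable {A W : Subgroup G} {z w : G} {δ : V → G} {φ : centralizer ({w} : Set G) →* M2} (T : T2 A W z w δ φ)
include T

theorem zero : δ 0 = 1 := mul_left_cancel (a := δ 0) (by rw [← T.add, add_zero, mul_one])

theorem inj' {u v : V} (e : δ u = δ v) : u = v := V_eq u v (T.inj _ (by rw [T.add, e, ← T.add, V_add, T.zero]))

theorem eq_of {k : centralizer ({w} : Set G)} {m : M2}
    (h : ∀ c u, c ∈ A → c * c = δ u → k * c * (k : G)⁻¹ = c * δ (ev m u)) : φ k = m := by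
  have : ∀ u, ev (φ k) u = ev m u := fun u => by
    obtain ⟨c, hc, e⟩ := T.sq u
    exact T.inj' (mul_left_cancel ((T.act k c u hc e).symm.trans (h c u hc e)))
  exact ev_ext _ _ (this _) (this _)

theorem ker (k : centralizer ({w} : Set G)) : φ k = 1 ↔ k.1 ∈ centralizer (A : Set G) := by
  refine ⟨fun e => mem_cent_subgroup_iff.2 fun c hc => ?_, fun e => T.eq_of fun c u hc _ => ?_⟩
  · obtain ⟨u, e1⟩ := T.sur _ (T.sqW hc)
    rw [← conj_eq_iff_commute, T.act k c u hc e1.symm, e, ev_one, T.zero, mul_one]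
  · rw [ev_one, T.zero, mul_one, conj_eq_iff_commute.2 (mem_cent_subgroup_iff.1 e c hc)]

theorem conj_out {g : G} (hg : g ∉ centralizer ({w} : Set G)) (k : centralizer ({w} : Set G)) :
    φ ⟨g * k * g⁻¹, T.nK.conj_mem _ k.2 g⟩ = tau (φ k) := T.eq_of fun c u hc e => by
  have h1 := T.act k _ (sg u) (T.nA.conj_mem c hc g⁻¹) (by rw [← T.out _ (mt inv_mem_iff.1 hg), ← e]; group)
  rw [ev_tau, ← T.out g hg]
  calc _ = g * (k * (g⁻¹ * c * g⁻¹⁻¹) * (k : G)⁻¹) * g⁻¹ := by simp only []; group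
    _ = _ := by rw [h1]; group

theorem ni {k : centralizer ({w} : Set G)} (h : good (φ k)) : NI A k := fun c hc e => by
  obtain ⟨u, e1⟩ := T.sur _ (T.sqW hc)
  rw [T.act k c u hc e1.symm, eq_inv_iff_mul_eq_one, mul_assoc, (T.ab _ (T.memW.1 (T.mem _)).1 c hc).eq, ← mul_assoc,
    ← e1, ← T.add] at e
  rw [← e1, h.2 u (V_eq _ _ (T.inj _ e)).symm, T.zero]

theorem fix {k : centralizer ({w} : Set G)} (h : ∀ u, ev (φ k) u = 0 → u = 0) {c : G}
    (hc : c ∈ centralizer (A : Set G)) (e : Commute (k : G) c) : c ∈ W :=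
  T.memW' hc (sq_of_ind T.two T.alp (Commute (k : G)) (fun _ e => e.mul_right e) (fun a ha e => by
    obtain ⟨u, e1⟩ := T.sur _ (T.sqW ha)
    have := T.act k a u ha e1.symm
    rw [conj_eq_iff_commute.2 e, left_eq_mul] at this
    rw [← e1, h u (T.inj _ this), T.zero]) hc e)

theorem sqC (k : centralizer ({w} : Set G)) : (k : G) * k ∈ centralizer (A : Set G) :=
  (T.ker (k * k)).1 (by rw [map_mul]; exact (by decide +kernel : ∀ m : M2, m * m = 1) _)

theorem G0 {k l : centralizer ({w} : Set G)} (h : good (φ k)) (hk : (k : G) * k = 1) (hl : (l : G) * l = 1)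
    (e : φ l = φ k) : (l : G) * (k : G)⁻¹ ∈ W :=
  T.fibre (T.ni h) ((T.ker (l * k⁻¹)).1 (by rw [map_mul, map_inv, e, mul_inv_cancel])) (by
    rw [inv_mul_cancel_right, hk, hl])

theorem G0' {k : centralizer ({w} : Set G)} (h : good (φ k)) (hk : (k : G) * k = 1) {g : G}
    (hg : g ∈ centralizer ({w} : Set G)) : g * k * g⁻¹ * (k : G)⁻¹ ∈ W :=
  T.G0 (l := ⟨g, hg⟩ * k * ⟨g, hg⟩⁻¹) h hk (by
    show g * k * g⁻¹ * (g * k * g⁻¹) = 1
    rw [← pow_two, conj_pow, pow_two, hk]; group) (by rw [map_mul, map_mul, map_inv, mul_inv_cancel_comm])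

theorem G1 [Finite G] {k : centralizer ({w} : Set G)} (h : good (φ k)) (hk : (k : G) * k = 1) :
    tau (φ k) ≠ φ k ∧ ∃ g, g ∉ centralizer ({w} : Set G) := by
  by_contra hc
  have hx : ∀ a ∈ W, Commute (k : G) a := fun a ha => T.commW k.2 ha
  haveI := T.nW
  have h1 := T.h _ (normal_ext hx fun g => by
    by_cases hg : g ∈ centralizer ({w} : Set G)
    · exact T.G0' h hk hg
    · refine T.G0 (l := ⟨_, T.nK.conj_mem _ k.2 g⟩) h hk (by
        show g * k * g⁻¹ * (g * k * g⁻¹) = 1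
        rw [← pow_two, conj_pow, pow_two, hk]; group) ?_
      rw [T.conj_out hg]
      by_contra e
      exact hc ⟨e, g, hg⟩) (ab_ext hx fun a ha b hb => T.ab a (T.memW.1 ha).1 b (T.memW.1 hb).1)
    (pow_ext hx (fun a ha => (pow_two a).trans (T.memW.1 ha).2) ((pow_two _).trans hk))
  have h2 : 4 ≤ Nat.card W := by
    have := Nat.card_le_card_of_injective (fun u => (⟨δ u, T.mem u⟩ : W)) fun u v e =>
      T.inj' (congrArg Subtype.val e)
    rwa [Nat.card_eq_fintype_card] at this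
  have h3 := eq_of_le_of_card_ge (le_ext hx) (h1.trans h2)
  have h4 := (T.memW.1 (h3 ▸ mem_ext hx : (k : G) ∈ W)).1
  exact h.1 ((T.ker k).2 (mem_cent_subgroup_iff.2 (T.ab _ h4)))

theorem G2 {k : centralizer ({w} : Set G)} (h : good (φ k)) (hk : (k : G) * k ∈ W) :
    ∃ l : centralizer ({w} : Set G), φ l = φ k ∧ (l : G) * l = 1 := by
  obtain ⟨v, e⟩ := T.sur _ hk
  obtain ⟨u, e1⟩ := good_sur _ h v
  obtain ⟨c, hc, e2⟩ := T.sq u
  have hc' := mem_cent_subgroup_iff.2 (T.ab c hc)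
  refine ⟨⟨c, T.CK hc'⟩ * k, by rw [map_mul, (T.ker _).2 hc', one_mul], ?_⟩
  show c * k * (c * k) = 1
  rw [show c * k * (c * k) = c * (k * c * (k : G)⁻¹) * (k * k) by group, T.act k c u hc e2, ← mul_assoc c c, e2, ← T.add,
    e1, ← e, ← T.add, V_add, T.zero]

theorem G3 [Finite G] {x : centralizer ({w} : Set G)} (h : good (φ x)) (hx : (x : G) * x = 1)
    (k : centralizer ({w} : Set G)) : φ k ≠ nn := fun e => by
  obtain ⟨h1, g, hg⟩ := T.G1 h hx
  obtain ⟨h2, h3⟩ := good_tau _ h h1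
  have key : ∀ y : centralizer ({w} : Set G), good (φ y) → (y : G) * y = 1 → Commute (y : G) (k * k) := by
    intro y h1 h2
    have h3 := T.G0' h1 h2 (inv_mem k.2)
    have h4 : (y : G) * k * (y : G)⁻¹ = k * ((k : G)⁻¹ * y * (k : G)⁻¹⁻¹ * (y : G)⁻¹) := by group
    rw [← conj_eq_iff_commute, ← pow_two, ← conj_pow, h4, (T.commW k.2 h3).mul_pow, pow_two (_ * _),
      (T.memW.1 h3).2, mul_one]
  rw [← T.conj_out hg, ← map_mul] at h3
  rw [← T.conj_out hg] at h2
  obtain ⟨l, e1, e2⟩ := T.G2 (e ▸ by decide +kernel) (T.fix h3 (T.sqC k) ((key x h hx).mul_left (key _ h2 (by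
    show g * x * g⁻¹ * (g * x * g⁻¹) = 1
    rw [← pow_two, conj_pow, pow_two, hx]; group))))
  exact (T.G1 (by rw [e1, e]; decide +kernel) e2).1 (by rw [e1, e]; decide +kernel)

variable [Finite G] {U M : Subgroup G}

theorem fixed (hM : ∀ u ∈ U, u * u ∈ M) (hMC : M ≤ centralizer (A : Set G)) {g : G} (hg : g ∈ U)
    (hg' : g ∉ centralizer ({w} : Set G)) : ∀ m ∈ (U.subgroupOf _).map φ, tau m = m := by
  rintro _ ⟨k, hk, rfl⟩
  rw [← T.conj_out hg', ← mul_inv_eq_one, ← map_inv, ← map_mul, T.ker]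
  exact hMC (St.comm_mem hM hg (show (k : G) ∈ U from hk))

theorem caseII (hM : ∀ u ∈ U, u * u ∈ M) : Nat.card U < 32 * Nat.card M := by
  have e := St.kU_eq (U := U) φ T.ker
  have hle : (U.subgroupOf _).map φ ≤ φ.range := map_le_range _ _
  have key : Nat.card ((U.subgroupOf _).map φ) ≤ 4 → nn ∉ (U.subgroupOf _).map φ → Nat.card U < 32 * Nat.card M :=
    fun h1 h2 => T.fin4 hM (T.R0 (e ▸ h1) fun hMC g hg hg' => by
      have := H6 _ (T.fixed hM hMC hg hg') h2
      omega)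
  by_cases hB : ∃ x : centralizer ({w} : Set G), good (φ x) ∧ (x : G) * x = 1
  · obtain ⟨x, h1, h2⟩ := hB
    obtain ⟨-, g, hg⟩ := T.G1 h1 h2
    have hn : nn ∉ φ.range := fun ⟨k, e⟩ => T.G3 h1 h2 k e
    refine key ((card_le_of_le hle).trans (not_lt.1 fun h => hn (H3 _ h ?_))) fun h => hn (hle h)
    rintro _ ⟨k, rfl⟩
    exact ⟨_, T.conj_out hg k⟩
  push Not at hB
  by_cases hA : ∃ m ∈ (U.subgroupOf _).map φ, good m
  · obtain ⟨_, ⟨k, hk, rfl⟩, h1⟩ := hA
    refine St.fin (a := 4) (b := 8) (by norm_num) (T.D2 hM (show (k : G) ∈ U from hk) (T.ni h1) (T.sqC k)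
      fun c hc => hB (⟨c, T.CK hc⟩ * k) (by rwa [map_mul, (T.ker _).2 hc, one_mul]))
      (T.R0 (e ▸ (card_le_of_le hle).trans (H4 _ ?_)) fun hMC g hg hg' => ?_)
    · rintro ⟨l, e1⟩
      obtain ⟨l', e2, e3⟩ := T.G2 (e1 ▸ by decide +kernel) (T.fix (e1 ▸ by decide +kernel) (T.sqC l)
        ((Commute.refl _).mul_right (Commute.refl _)))
      exact hB l' (by rw [e2, e1]; decide +kernel) e3
    · have := H5 _ (T.fixed hM hMC hg hg')
      omega
  · exact key (not_lt.1 fun h => hA (H2 _ h)) fun h => hA ⟨_, h, by decide +kernel⟩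

end T2

theorem main [Finite G] (hP : IsPGroup 2 G)
    (h : ∀ E : Subgroup G, E.Normal → Ab E → (∀ a ∈ E, a ^ 2 = 1) → Nat.card E ≤ 4) {U M : Subgroup G}
    (hM : ∀ u ∈ U, u * u ∈ M) : Nat.card U < 32 * Nat.card M := by
  obtain ⟨A, W, z, w, S⟩ := exists_St hP h
  by_cases h1 : ∃ a ∈ A, ∀ c ∈ A, c * c = 1 ∨ c * c = a * a
  · obtain ⟨a, ha, h1⟩ := h1
    exact S.caseI hM ha h1
  push Not at h1
  obtain ⟨c, hc, c1, -⟩ := h1 1 (one_mem _)
  obtain ⟨d, hd, d1, dc⟩ := h1 c hc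
  have z2 := (S.memW.1 S.zW).2
  have w2 := (S.memW.1 S.wW).2
  have e1 : c * d * (c * d) = c * c * (d * d) := by rw [← pow_two, (S.ab c hc d hd).mul_pow, pow_two, pow_two]
  have e2 : z * (z * w) = w := by rw [← mul_assoc, z2, one_mul]
  have e3 : z * w * w = z := by rw [mul_assoc, w2, mul_one]
  have e4 : z * w * z = w := by rw [mul_assoc, (S.zc w).eq, e2]
  have e5 : w * (z * w) = z := by rw [← mul_assoc, (S.zc w).eq, e3]
  have key : ∀ {a b : G}, a ∈ A → b ∈ A → a * a = z → b * b = w → Nat.card U < 32 * Nat.card M := by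
    intro a b ha hb f1 f2
    have : z ≠ 1 ∧ w ≠ 1 ∧ z * w ≠ 1 := by
      refine ⟨fun e => ?_, fun e => ?_, fun e => ?_⟩
      · rcases S.cs _ (S.sqW hc) with f | f | f | f <;> rcases S.cs _ (S.sqW hd) with f' | f' | f' | f' <;>
          simp_all
      · rcases S.cs _ (S.sqW hc) with f | f | f | f <;> rcases S.cs _ (S.sqW hd) with f' | f' | f' | f' <;>
          simp_all
      · have : w = z := by rw [← e2, e, mul_one]
        rcases S.cs _ (S.sqW hc) with f | f | f | f <;> rcases S.cs _ (S.sqW hd) with f' | f' | f' | f' <;>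
          simp_all
    obtain ⟨δ, φ, T⟩ := exists_T2 S ha hb f1 f2 this.1 this.2.1 this.2.2
    exact T.caseII hM
  have hcd := mul_mem hc hd
  rcases S.cs _ (S.sqW hc) with f | f | f | f <;> rcases S.cs _ (S.sqW hd) with f' | f' | f' | f' <;>
    first
    | exact absurd f c1
    | exact absurd f' d1
    | exact absurd (f'.trans f.symm) dc
    | exact key hc hd f f'
    | exact key hd hc f' f
    | exact key hc hcd f (by rw [e1, f, f', e2])
    | exact key hcd hc (by rw [e1, f, f', e5]) f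
    | exact key hd hcd f' (by rw [e1, f, f', e4])
    | exact key hcd hd (by rw [e1, f, f', e3]) f'

theorem realizeEqns_Mac_C : True := by
  have := @CA.Mac.nn.eq_1
  have := @CA.Mac.nn.eq_def
  have := @CA.Mac.nn.congr_simp
  have := @CA.Mac.tau.eq_1
  have := @CA.Mac.tau.eq_def
  have := @CA.Mac.tau.congr_simp
  have := @CA.Mac.ev.eq_1
  have := @CA.Mac.ev.eq_def
  have := @CA.Mac.ev.congr_simp
  have := @CA.Mac.sg.eq_1
  have := @CA.Mac.sg.eq_def
  have := @CA.Mac.sg.congr_simp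
  have := @CA.Mac.M2.eq_1
  have := @CA.Mac.M2.eq_def
  have := @CA.Mac.M2.congr_simp
  have := @CA.Mac.om.eq_1
  have := @CA.Mac.om.eq_def
  have := @CA.Mac.om.congr_simp
  have := @CA.Mac.good.eq_1
  have := @CA.Mac.good.eq_def
  have := @CA.Mac.good.congr_simp
  have := @CA.Mac.V.eq_1
  have := @CA.Mac.V.eq_def
  have := @CA.Mac.V.congr_simp
  trivial

end CA.Mac
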